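import Cfsg.Agent.H34.Pair
import Cfsg.Agent.H34.FixedClosure
import Cfsg.Agent.H34.Offender
import Cfsg.Agent.H19.Fitting
import Cfsg.Agent.H1.SLTwoThree

/-! For odd `p` and solvable `G` (abelian Sylow 2-subgroups if `p = 3`), `J(G)` centralises `⟨Ω₁(Z(S))⟩`. -/

set_option autoImplicit false

namespace Cfsg.Agent.H23

open Subgroup
open Cfsg
open scoped commutatorElement Pointwise

variable {p : ℕ} [Fact p.Prime]

/-- In a solvable group with `O_p = 1` the `p'`-core is self-centralising. -/
theorem centralizer_pPrimeCore_le_of_solvable {K : Type*} [Group K] [Finite K] [Group.IsSolvable K]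
    (hO : pCore p K = ⊥) :
    centralizer (pPrimeCore p K : Set K) ≤ pPrimeCore p K := by
  have hFle : fittingSubgroup K ≤ pPrimeCore p K := by
    rw [H19.fitting_eq_iSup_pCore]
    refine iSup_le fun q => ?_
    by_cases hq : (q : ℕ) = p
    · rw [hq, hO]; exact bot_le
    · have : Fact (q : ℕ).Prime := ⟨q.2⟩
      obtain ⟨k, hk⟩ := IsPGroup.iff_card.1 (H19.pCore_isPGroup (q : ℕ) (G := K))
      exact H19.le_pPrimeCore (H19.pCore_normal _ K)
        (by rw [hk]; exact ((Nat.coprime_primes q.2 (Fact.out : p.Prime)).2 hq).pow_left k)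
  exact (centralizer_le hFle).trans (H19.centralizer_fitting_le.trans hFle)

/-- A transvection group in a solvable group yields a section `SL(2,p)`. -/
theorem exists_slTwo {Γ : Type*} [Group Γ] [Finite Γ] {V H T : Subgroup Γ}
    (S : H34.FFSetup p V H) [hVn : V.Normal] (hT : H34.IsTransvectionGroup p V H T) :
    ∃ E : Subgroup Γ, E ≤ H ∧ Nonempty (↥E ≃* Matrix.SpecialLinearGroup (Fin 2) (ZMod p)) := by
  have hp := (Fact.out : p.Prime)
  obtain ⟨hTH, hTc, hTfix⟩ := hT
  have hTp : IsPGroup p T := IsPGroup.of_card (n := 1) (by rw [pow_one, hTc])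
  set K := H34.coreOf p H
  have hTK : T ≤ normalizer (K : Set Γ) := hTH.trans H34.le_normalizer_coreOf
  have hTinf : T ⊓ K = ⊥ := H19.inf_eq_bot_of_isPGroup_coprime hTp H34.coreOf_coprime
  obtain ⟨x, hxK, hxT⟩ : ∃ x ∈ K, x ∉ normalizer (T : Set Γ) := by
    by_contra h
    push Not at h
    have h1 : T ≠ ⊥ := by
      rintro rfl
      rw [Subgroup.card_bot] at hTc
      exact hp.ne_one hTc.symm
    refine h1 (S.eq_bot_of_centralizes hTH hTp ?_)
    rw [eq_bot_iff, ← hTinf]
    exact le_inf (le_normalizer_iff_commutator_le_right.1 h)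
      (le_normalizer_iff_commutator_le_left.1 hTK)
  set T' := T.map (MulAut.conj x).toMonoidHom with hT'
  have hxH : x ∈ H := H34.coreOf_le hxK
  have hT'H : T' ≤ H := by
    rintro _ ⟨t, ht, rfl⟩
    exact H.mul_mem (H.mul_mem hxH (hTH ht)) (H.inv_mem hxH)
  have hT'trans : H34.IsTransvectionGroup p V H T' := by
    refine ⟨hT'H, by rw [hT', card_map_of_injective (MulAut.conj x).injective, hTc], ?_⟩
    have : V ⊓ centralizer (T' : Set Γ) = (V ⊓ centralizer (T : Set Γ)).map (MulAut.conj x).toMonoidHom := by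
      rw [Subgroup.map_inf _ _ _ (MulAut.conj x).injective, H34.map_centralizer (MulAut.conj x)]
      congr 1
      refine le_antisymm ?_ ?_
      · intro v hv
        exact ⟨x⁻¹ * v * x, by simpa using hVn.conj_mem v hv x⁻¹, by simp [mul_assoc]⟩
      · rintro _ ⟨v, hv, rfl⟩
        exact hVn.conj_mem v hv x
    rw [this, card_map_of_injective (MulAut.conj x).injective, hTfix]
  have hnp : ¬ IsPGroup p ↥(T ⊔ T') := by
    intro hpg
    obtain ⟨k, hk⟩ := IsPGroup.iff_card.1 hpg
    obtain ⟨t, ht⟩ : ∃ t, zpowers t = T := by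
      haveI : IsCyclic T := isCyclic_of_prime_card hTc
      exact Subgroup.isCyclic_iff_exists_zpowers_eq_top T |>.1 ‹_›
    have htT : t ∈ T := ht ▸ mem_zpowers t
    have htp : t ^ p = 1 := by
      have := pow_card_eq_one' (G := T) (x := ⟨t, htT⟩)
      rw [hTc] at this
      simpa using congrArg Subtype.val this
    have htK : t ∉ K := fun h => by
      have h2 : t = 1 := by
        rw [← mem_bot, ← hTinf]
        exact ⟨htT, h⟩
      rw [h2, zpowers_one_eq_bot] at ht
      rw [← ht, Subgroup.card_bot] at hTc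
      exact hp.ne_one hTc.symm
    have hcard : Nat.card ↥(K ⊔ T) = p * Nat.card K := by
      rw [← ht]; exact H34.card_sup_zpowers (hTK htT) htp htK
    have hle : T ⊔ T' ≤ K ⊔ T := by
      refine sup_le le_sup_right ?_
      rintro _ ⟨u, hu, rfl⟩
      exact mul_mem (mul_mem (mem_sup_left hxK) (mem_sup_right hu)) (inv_mem (mem_sup_left hxK))
    have hd : p ^ k ∣ p * Nat.card K := by
      rw [← hk, ← hcard]; exact card_dvd_of_le hle
    have hd2 : p ^ k ∣ p :=
      ((Nat.Coprime.pow_right k H34.coreOf_coprime).symm).dvd_of_dvd_mul_right hd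
    have heq : T ⊔ T' = T := by
      refine (eq_of_le_of_card_ge le_sup_left ?_).symm
      rw [hk, hTc]; exact Nat.le_of_dvd hp.pos hd2
    refine hxT (mem_normalizer_iff.2 ?_)
    have heq' : T' = T :=
      eq_of_le_of_card_ge (sup_eq_left.1 heq) (by rw [hT', card_map_of_injective (MulAut.conj x).injective])
    intro u
    constructor
    · intro hu
      exact sup_eq_left.1 heq ⟨u, hu, rfl⟩
    · intro hu
      rw [← heq'] at hu
      obtain ⟨w, hw, hw'⟩ := hu
      have : w = u := (MulAut.conj x).injective (by simpa using hw')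
      exact this ▸ hw
  obtain ⟨e, -⟩ := (S.pair ⟨hTH, hTc, hTfix⟩ hT'trans hnp).2.2.2.2.2.2
  exact ⟨T ⊔ T', sup_le hTH hT'H, ⟨e⟩⟩

/-- A solvable group with abelian Sylow 2-subgroups, if `p = 3`, contains no `SL(2,p)`, `p` odd. -/
theorem not_slTwo_le {K : Type*} [Group K] [Finite K] [Group.IsSolvable K] (hp2 : p ≠ 2)
    (h3 : p = 3 → ∀ T : Sylow 2 K, IsMulCommutative T)
    (f : Matrix.SpecialLinearGroup (Fin 2) (ZMod p) →* K) (hf : Function.Injective f) : False := by
  have hp := (Fact.out : p.Prime)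
  rcases eq_or_ne p 3 with rfl | hne
  · let g : QuaternionGroup 2 →* K := f.comp H1.q8Hom
    have hg : Function.Injective g := hf.comp H1.q8Hom_injective
    have h2 : IsPGroup 2 g.range := IsPGroup.of_card (n := 3) (by
      rw [← Nat.card_congr (g.ofInjective hg).toEquiv, Nat.card_eq_fintype_card,
        QuaternionGroup.card]; norm_num)
    obtain ⟨T, hT⟩ := h2.exists_le_sylow
    haveI := h3 rfl T
    have h := setLike_mul_comm (s := (T : Subgroup K)) (hT ⟨QuaternionGroup.a 1, rfl⟩)
      (hT ⟨QuaternionGroup.xa 0, rfl⟩)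
    rw [← map_mul, ← map_mul] at h
    exact absurd (hg h) (by decide)
  · have h5 : 5 ≤ p := by
      rcases lt_or_ge p 5 with h | h
      · have := hp.two_le
        interval_cases p
        · exact absurd rfl hp2
        · exact absurd rfl hne
        · exact absurd hp (by decide)
      · exact h
    haveI : Group.IsSolvable (Matrix.SpecialLinearGroup (Fin 2) (ZMod p)) :=
      Group.isSolvable_of_isSolvable_injective hf
    haveI : Nontrivial (Matrix.SpecialLinearGroup (Fin 2) (ZMod p)) :=
      ⟨⟨H34.SL2.upper 1, 1, fun h => by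
        have := congrFun (congrFun (congrArg Subtype.val h) 0) 1
        simp [H34.SL2.upper] at this⟩⟩
    refine (Group.IsSolvable.commutator_lt_top_of_nontrivial
      (Matrix.SpecialLinearGroup (Fin 2) (ZMod p))).ne ?_
    rw [eq_top_iff]
    intro g _
    have h := H34.SL2.hom_trivial p
      (A := Abelianization (Matrix.SpecialLinearGroup (Fin 2) (ZMod p)))
      (fun x y => mul_comm x y) h5 Abelianization.of g
    exact (QuotientGroup.eq_one_iff g).1 h

variable {G : Type*} [Group G] [Finite G]

/-- Solvable Thompson factorisation: `J(G)` centralises the closure of the `Ω₁(Z(S))`. -/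
theorem thompson_le_centralizer_omegaZ [Group.IsSolvable G] (hp2 : p ≠ 2)
    (h3 : p = 3 → ∀ T : Sylow 2 G, IsMulCommutative T) (hO : pPrimeCore p G = ⊥) :
    thompsonSubgroup p G ≤ centralizer (H34.omegaZ p G : Set G) := by
  classical
  have hc := H19.centralizer_pCore_le hO
  set Z := H34.omegaZ p G with hZ
  haveI hZn : Z.Normal := H34.omegaZ_normal
  have hZe : IsElementaryAbelian p Z := H34.omegaZ_isElementaryAbelian hc
  refine sSup_le fun A hA => ?_
  by_contra hAC
  set C := centralizer (Z : Set G) with hC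
  have hKp : pCore p (G ⧸ C) = ⊥ :=
    H34.pCore_quotient_centralizer_eq_bot Z H34.omegaZ_le_iSup_fixed
  let φ : G ⧸ C →* MulAut Z := QuotientGroup.lift C MulAut.conjNormal (fun c hc' => by
    rw [MonoidHom.mem_ker]
    refine MulEquiv.ext fun z => Subtype.ext ?_
    rw [MulAut.conjNormal_apply]
    change c * (z : G) * c⁻¹ = z
    rw [← hc' z z.2, mul_inv_cancel_right])
  have hφ : ∀ k, φ k = 1 → k = 1 := by
    intro k hk
    obtain ⟨g, rfl⟩ := QuotientGroup.mk'_surjective C k
    refine (QuotientGroup.eq_one_iff g).2 fun z hz => ?_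
    have h1 : MulAut.conjNormal g = (1 : MulAut Z) := hk
    have h2 := congrArg (fun e : MulAut Z => ((e ⟨z, hz⟩ : Z) : G)) h1
    simp only [MulAut.conjNormal_apply, MulAut.one_apply] at h2
    exact (mul_inv_eq_iff_eq_mul.1 h2).symm
  let Γ := SemidirectProduct Z (G ⧸ C) φ
  haveI : Finite Γ := Finite.of_equiv _ SemidirectProduct.equivProd.symm
  set V : Subgroup Γ := (SemidirectProduct.inl (φ := φ)).range with hV
  haveI hVn : V.Normal := by
    rw [hV, SemidirectProduct.range_inl_eq_ker_rightHom]; infer_instance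
  set H : Subgroup Γ := (SemidirectProduct.inr (φ := φ)).range with hH
  let e : (G ⧸ C) ≃* H := MonoidHom.ofInjective SemidirectProduct.inr_injective
  haveI : Group.IsSolvable H := Group.isSolvable_of_surjective (f := e.toMonoidHom) e.surjective
  have hHp : pCore p H = ⊥ := by
    have h1 : (pCore p H).map e.symm.toMonoidHom ≤ pCore p (G ⧸ C) :=
      H19.le_pCore ((H19.pCore_normal p H).map _ e.symm.surjective) ((H19.pCore_isPGroup p).map _)
    rw [hKp, le_bot_iff, map_eq_bot_iff_of_injective _ e.symm.injective] at h1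
    exact h1
  have hZa : ∀ a b : Z, a * b = b * a := fun a b => Subtype.ext (hZe.1.1.1 a b |> congrArg Subtype.val)
  have S : H34.FFSetup p V H := by
    have hT : IsElementaryAbelian p (⊤ : Subgroup Z) :=
      ⟨⟨⟨fun a b => Subtype.ext (hZa a b)⟩⟩, fun a _ => Subtype.ext (hZe.2 _ a.2)⟩
    have hVe := H34.isElementaryAbelian_map hT (SemidirectProduct.inl (φ := φ))
    rw [← MonoidHom.range_eq_map] at hVe
    refine ⟨hVe, le_normalizer_of_normal, ?_, centralizer_pPrimeCore_le_of_solvable hHp⟩
    · rw [eq_bot_iff]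
      rintro _ ⟨⟨k, rfl⟩, hk⟩
      rw [mem_bot]
      suffices h : φ k = 1 by rw [hφ k h, map_one]
      refine MulEquiv.ext fun z => SemidirectProduct.inl_injective (φ := φ) ?_
      rw [SemidirectProduct.inl_aut, map_inv, MulAut.one_apply,
        ← hk (SemidirectProduct.inl z) ⟨z, rfl⟩, mul_inv_cancel_right]
  set Ā := (A.map (QuotientGroup.mk' C)).map (SemidirectProduct.inr (φ := φ)) with hĀ
  have hĀH : Ā ≤ H := map_le_range _ _
  have hĀe : IsElementaryAbelian p Ā :=
    H34.isElementaryAbelian_map (H34.isElementaryAbelian_map hA.1 _) _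
  have hoff : Nat.card V ≤ H34.offNum V Ā := by
    have hVc : Nat.card V = Nat.card Z :=
      (Nat.card_congr (MonoidHom.ofInjective (SemidirectProduct.inl_injective (φ := φ))).toEquiv).symm
    have hfix : Nat.card ↥(A ⊓ Z) ≤ Nat.card ↥(V ⊓ centralizer (Ā : Set Γ)) := by
      have hsub : ((A ⊓ Z).subgroupOf Z).map (SemidirectProduct.inl (φ := φ)) ≤
          V ⊓ centralizer (Ā : Set Γ) := by
        rintro _ ⟨z, hz, rfl⟩
        refine ⟨⟨z, rfl⟩, ?_⟩
        rintro _ ⟨_, ⟨a, ha, rfl⟩, rfl⟩
        have hfixz : φ (a : G ⧸ C) z = z := by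
          refine Subtype.ext ?_
          change a * (z : G) * a⁻¹ = z
          haveI := hA.1.1
          have hzA : (z : G) ∈ A := hz.1
          rw [setLike_mul_comm (s := A) ha hzA, mul_inv_cancel_right]
        have := SemidirectProduct.inl_aut (φ := φ) (a : G ⧸ C) z
        rw [hfixz] at this
        rw [map_inv] at this
        exact mul_inv_eq_iff_eq_mul.1 this.symm
      refine le_trans (le_of_eq ?_) (card_le_of_le hsub)
      rw [card_map_of_injective SemidirectProduct.inl_injective]
      exact (Nat.card_congr (subgroupOfEquivOfLe inf_le_right).toEquiv).symm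
    have hqA : Nat.card Ā * Nat.card ↥(A ⊓ C) = Nat.card A := by
      rw [hĀ, card_map_of_injective SemidirectProduct.inr_injective, mul_comm]
      have h := ((QuotientGroup.mk' C).comp A.subtype).ker.card_mul_index
      rw [index_ker, MonoidHom.range_comp, A.range_subtype] at h
      rw [← h, ← MonoidHom.comap_ker, QuotientGroup.ker_mk']
      congr 1
      rw [show comap A.subtype C = (A ⊓ C).subgroupOf A by rw [inf_comm, inf_subgroupOf_right]; rfl]
      exact (Nat.card_congr (subgroupOfEquivOfLe inf_le_left).toEquiv).symm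
    have hprod : Nat.card ↥(A ⊓ C) * Nat.card Z ≤ Nat.card A * Nat.card ↥(A ⊓ Z) := by
      have he : IsElementaryAbelian p ((A ⊓ C) ⊔ Z : Subgroup G) :=
        H34.isElementaryAbelian_sup (H34.isElementaryAbelian_mono hA.1 inf_le_left) hZe inf_le_right
      exact (H34.card_mul_card_le _ _).trans
        (Nat.mul_le_mul (hA.2 _ he) (card_le_of_le (inf_le_inf_right Z inf_le_left)))
    rw [hVc, H34.offNum]
    refine le_trans ?_ (Nat.mul_le_mul_left _ hfix)
    refine Nat.le_of_mul_le_mul_left ?_ (Nat.card_pos (α := ↥(A ⊓ C)))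
    calc _ ≤ Nat.card A * Nat.card ↥(A ⊓ Z) := hprod
      _ = _ := by rw [← hqA]; ring
  have hbest : IsBestOffenderOn p V Ā :=
    (S.bestOffender_iff hĀH).2 ⟨hĀe, le_antisymm (S.offNum_le hĀH hĀe) hoff⟩
  obtain ⟨T, hT, -⟩ : ∃ T, H34.IsTransvectionGroup p V H T ∧ T ≤ Ā := by
    by_contra h
    have hb : Ā ≤ ⊥ := (S.generated_by_transvections hĀH hbest).trans
      (sSup_le fun B hB => (h ⟨B, hB⟩).elim)
    rw [le_bot_iff, hĀ, map_eq_bot_iff_of_injective _ SemidirectProduct.inr_injective,
      Subgroup.map_eq_bot_iff, QuotientGroup.ker_mk'] at hb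
    exact hAC hb
  obtain ⟨E, hEH, ⟨i⟩⟩ := exists_slTwo S hT
  refine not_slTwo_le (K := G ⧸ C) hp2 (fun hp3 T => ?_)
    (e.symm.toMonoidHom.comp ((Subgroup.inclusion hEH).comp i.symm.toMonoidHom))
    (e.symm.injective.comp ((Subgroup.inclusion_injective hEH).comp i.symm.injective))
  obtain ⟨Q, rfl⟩ := Sylow.mapSurjective_surjective (QuotientGroup.mk'_surjective C) 2 T
  haveI := h3 hp3 Q
  rw [Sylow.coe_mapSurjective]
  infer_instance

end Cfsg.Agent.H23
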