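import Cfsg.Agent.H23.ZJElementary
import Cfsg.Agent.H23.GlaubermanThompson
import Cfsg.Agent.H61.Fusion

/-! Glauberman: if all constrained sections are `p`-stable, `N(Z(J(P)))` controls fusion in `P`. -/

set_option autoImplicit false
universe u

namespace Cfsg.Agent.H23

open Subgroup
open Cfsg

variable {p : ℕ} [hpf : Fact p.Prime]

/-- `Q ↦ Z(J(Q))` as a functor on groups. -/
def zjFunctor (p : ℕ) (Q : Type u) [Group Q] : Subgroup Q := centerThompsonOf p (⊤ : Subgroup Q)

theorem zjFunctor_isCharPFunctor : IsCharPFunctor.{u} p (zjFunctor p) := by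
  refine ⟨fun Q _ _ hQ _ => centerThompsonOf_ne_bot (hQ.to_subgroup ⊤) top_ne_bot, fun Q R _ _ _ _ φ => ?_⟩
  haveI : Finite R := Finite.of_equiv Q φ.toEquiv
  rw [zjFunctor, zjFunctor, map_centerThompsonOf _ _ φ.injective.injOn,
    map_top_of_surjective _ φ.surjective]

theorem inducedFunctor_zjFunctor {X : Type u} [Group X] [Finite X] (P : Subgroup X) :
    inducedFunctor (zjFunctor p) P = centerThompsonOf p P := by
  rw [inducedFunctor, zjFunctor, map_centerThompsonOf _ _ P.subtype_injective.injOn,
    ← MonoidHom.range_eq_map, P.range_subtype]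

/-- `p`-stability of all constrained sections gives control of fusion by `N(Z(J(P)))`. -/
theorem zj_controls_fusion {G : Type u} [Group G] [Finite G] (hp : p ≠ 2)
    (hst : ∀ (X : Type u) [Group X] [Finite X], H61.Sect X G → H61.Constrained p X →
      ∀ (V : Subgroup X) [V.Normal], IsPGroup p V → IsPStableOn p V)
    (P : Sylow p G) (A : Set G) (hA : A ⊆ (P : Set G)) (g : G)
    (hAg : (fun a => g * a * g⁻¹) '' A ⊆ (P : Set G)) :
    ∃ x ∈ normalizer (centerThompsonOf p (P : Subgroup G) : Set G),
      ∀ a ∈ A, x * a * x⁻¹ = g * a * g⁻¹ := by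
  have hW : ∀ V ∈ ({zjFunctor p} : Set (∀ (Q : Type u) [Group Q], Subgroup Q)),
      IsCharPFunctor.{u} p V := by
    rintro V rfl; exact zjFunctor_isCharPFunctor
  have h : H61.FusionOK p {zjFunctor p} G := by
    refine H61.fusion_main hW (G := G) (fun X _ _ hX hC => ?_) H61.sect_refl
    exact H61.fusionOK_of_normal rfl fun S => by
      rw [inducedFunctor_zjFunctor]
      exact centerThompsonOf_normal hp S hC (hst X hX hC)
  have h' : H61.FusAll {inducedFunctor (G := G) (zjFunctor p)} (P : Subgroup G) ⊤ := by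
    have := h P
    rwa [H61.Wset, Set.image_singleton] at this
  obtain ⟨x, hx, e⟩ := H61.controls_of_fusAll (H61.isConjugacyFunctor_induced zjFunctor_isCharPFunctor)
    (H61.sylowIn_of_le P le_top) h' (mem_top g) hA hAg
  rw [inducedFunctor_zjFunctor] at hx
  exact ⟨x, hx.2, e⟩

end Cfsg.Agent.H23
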